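import Mathlib
import Cfsg.Agent.Lib.Fi24LT45
import Cfsg.Agent.Lib.PcClass36

/-!
# Elementary abelian chains and word checks in `Fi₂₄`

Digit arithmetic for normal forms in an elementary abelian 3-group, and the check of equalities of words in the
presented `Fi₂₄` through the points of its letters.
-/

set_option autoImplicit false
set_option maxRecDepth 100000
set_option linter.all false

namespace Cfsg.Agent.Lib.F3C

open Cfsg.Agent.Lib.PcClass36 Cfsg.Agent.Lib.CoxCert
open Cfsg.Agent.Lib.OutTree36 (allL allL_spec beq_true)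

section abs

variable {Γ : Type*} [Group Γ]

theorem nfG_zero : ∀ (ts : List Γ), nfG ts 0 = 1
  | [] => rfl
  | t :: ts => by simp [nfG, nfG_zero ts]

theorem pow_mod3 {t : Γ} (h : t ^ 3 = 1) (n : ℕ) : t ^ (n % 3) = t ^ n := by
  conv_rhs => rw [← Nat.div_add_mod n 3, pow_add, pow_mul, h, one_pow, one_mul]

/-- Digitwise addition. -/
def addN : ℕ → ℕ → ℕ → ℕ
  | 0, _, _ => 0
  | n + 1, a, b => (a % 3 + b % 3) % 3 + 3 * addN n (a / 3) (b / 3)

theorem addN_lt : ∀ (n a b : ℕ), addN n a b < 3 ^ n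
  | 0, _, _ => by simp [addN]
  | n + 1, a, b => by
    have := addN_lt n (a / 3) (b / 3)
    have h : (a % 3 + b % 3) % 3 < 3 := Nat.mod_lt _ (by norm_num)
    rw [addN, pow_succ]; omega

theorem comm_nfG {t : Γ} : ∀ {ts : List Γ}, (∀ u ∈ ts, t * u = u * t) → ∀ a, t * nfG ts a = nfG ts a * t
  | [], _, _ => by simp [nfG]
  | u :: ts, h, a => by
    have h1 : Commute t (u ^ (a % 3)) := (show Commute t u from h u List.mem_cons_self).pow_right _
    have h2 := comm_nfG (ts := ts) (fun v hv => h v (List.mem_cons_of_mem _ hv)) (a / 3)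
    simp only [nfG]
    rw [← mul_assoc, h1.eq, mul_assoc, h2, mul_assoc]

/-- A list of commuting elements of order dividing 3. -/
def ElemL (ts : List Γ) : Prop := (∀ u ∈ ts, ∀ v ∈ ts, u * v = v * u) ∧ ∀ u ∈ ts, u ^ 3 = 1

theorem nfG_addN : ∀ {ts : List Γ}, ElemL ts → ∀ a b, nfG ts (addN ts.length a b) = nfG ts a * nfG ts b
  | [], _, a, b => by simp [nfG]
  | t :: ts, h, a, b => by
    have ht3 := h.2 t List.mem_cons_self
    have hs : ElemL ts := ⟨fun u hu v hv => h.1 u (List.mem_cons_of_mem _ hu) v (List.mem_cons_of_mem _ hv),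
      fun u hu => h.2 u (List.mem_cons_of_mem _ hu)⟩
    have hc : ∀ u ∈ ts, t * u = u * t := fun u hu => h.1 t List.mem_cons_self u (List.mem_cons_of_mem _ hu)
    have e : addN (t :: ts).length a b = (a % 3 + b % 3) % 3 + 3 * addN ts.length (a / 3) (b / 3) := rfl
    rw [e, nfG_cons _ _ (Nat.mod_lt _ (by norm_num)), nfG_addN hs, pow_mod3 ht3, pow_add]
    simp only [nfG]
    have h1 : Commute (t ^ (b % 3)) (nfG ts (a / 3)) := by
      have : Commute t (nfG ts (a / 3)) := comm_nfG hc _
      exact this.pow_left _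
    calc t ^ (a % 3) * t ^ (b % 3) * (nfG ts (a / 3) * nfG ts (b / 3))
        = t ^ (a % 3) * (t ^ (b % 3) * nfG ts (a / 3)) * nfG ts (b / 3) := by group
      _ = t ^ (a % 3) * (nfG ts (a / 3) * t ^ (b % 3)) * nfG ts (b / 3) := by rw [h1.eq]
      _ = _ := by group

/-- A multiple. -/
def smulN (n d m : ℕ) : ℕ :=
  match d with
  | 0 => 0
  | 1 => m
  | _ => addN n m m

theorem nfG_smulN {ts : List Γ} (h : ElemL ts) (d m : ℕ) (hd : d < 3) :
    nfG ts (smulN ts.length d m) = nfG ts m ^ d := by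
  match d, hd with
  | 0, _ => simp [smulN, nfG_zero]
  | 1, _ => simp [smulN]
  | 2, _ =>
    show nfG ts (addN ts.length m m) = _
    rw [nfG_addN h, pow_two]

/-- A linear map on digits. -/
def lin (n : ℕ) : List ℕ → ℕ → ℕ
  | [], _ => 0
  | m :: ms, a => addN n (smulN n (a % 3) m) (lin n ms (a / 3))

theorem conj_nfG {ts : List Γ} (h : ElemL ts) (g : Γ) : ∀ {L : List Γ} {ms : List ℕ},
    List.Forall₂ (fun u m => g * u * g⁻¹ = nfG ts m) L ms → ∀ a, g * nfG L a * g⁻¹ = nfG ts (lin ts.length ms a)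
  | [], [], _, a => by simp [nfG, lin, nfG_zero]
  | u :: L, m :: ms, hh, a => by
    rw [List.forall₂_cons] at hh
    simp only [nfG, lin]
    rw [nfG_addN h, nfG_smulN h _ _ (Nat.mod_lt _ (by norm_num)), ← hh.1, ← conj_nfG h g hh.2, conj_pow]
    group

theorem lin_lt (n : ℕ) : ∀ (ms : List ℕ) (a : ℕ), lin n ms a < 3 ^ n
  | [], _ => by simp [lin]
  | m :: ms, a => by
    simp only [lin]
    exact addN_lt _ _ _

theorem nfG_basis : ∀ (ts : List Γ) (i : ℕ) (hi : i < ts.length), nfG ts (3 ^ i) = ts[i]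
  | [], _, hi => by simp at hi
  | t :: ts, 0, _ => by simp [nfG, nfG_zero]
  | t :: ts, i + 1, hi => by
    have e1 : 3 ^ (i + 1) % 3 = 0 := by rw [pow_succ]; omega
    have e2 : 3 ^ (i + 1) / 3 = 3 ^ i := by rw [pow_succ]; omega
    simp only [nfG, e1, e2, pow_zero, one_mul]
    exact nfG_basis ts i (by simpa using hi)

theorem exists_nfG_of_mem {ts : List Γ} {u : Γ} (hu : u ∈ ts) : ∃ m, u = nfG ts m := by
  obtain ⟨i, hi, rfl⟩ := List.mem_iff_getElem.mp hu
  exact ⟨3 ^ i, (nfG_basis ts i hi).symm⟩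

/-- A normal form on a concatenation. -/
theorem nfG_append : ∀ (L₁ L₂ : List Γ) (a : ℕ),
    nfG (L₁ ++ L₂) a = nfG L₁ (a % 3 ^ L₁.length) * nfG L₂ (a / 3 ^ L₁.length)
  | [], L₂, a => by simp [nfG, Nat.mod_one]
  | t :: L₁, L₂, a => by
    simp only [List.cons_append, nfG, List.length_cons]
    rw [nfG_append L₁ L₂ (a / 3)]
    have e1 : a % 3 ^ (L₁.length + 1) % 3 = a % 3 := by
      rw [pow_succ']
      exact Nat.mod_mul_right_mod _ _ _
    have e2 : a % 3 ^ (L₁.length + 1) / 3 = a / 3 % 3 ^ L₁.length := by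
      rw [pow_succ', Nat.mod_mul_right_div_self]
    have e3 : a / 3 ^ (L₁.length + 1) = a / 3 / 3 ^ L₁.length := by
      rw [pow_succ', Nat.div_div_eq_div_mul]
    rw [e1, e2, e3, mul_assoc]

/-- All elements of a list act trivially on a point. -/
theorem fix_nfG {Φ : Γ →* Equiv.Perm ℕ} {p : ℕ} : ∀ {ts : List Γ}, (∀ u ∈ ts, Φ u p = p) → ∀ a, Φ (nfG ts a) p = p
  | [], _, _ => by simp [nfG]
  | t :: ts, h, a => by
    have h1 := fix_nfG (ts := ts) (fun u hu => h u (List.mem_cons_of_mem _ hu)) (a / 3)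
    have h2 : ∀ k : ℕ, Φ (t ^ k) p = p := by
      intro k
      induction k with
      | zero => simp
      | succ k ih =>
        rw [pow_succ, map_mul, Equiv.Perm.mul_apply, h t List.mem_cons_self, ih]
    simp only [nfG]
    rw [map_mul, Equiv.Perm.mul_apply, h1, h2]

/-- A zip check. -/
def all2 (f : List ℕ → ℕ → Bool) : List (List ℕ) → List ℕ → Bool
  | [], [] => true
  | u :: L, m :: ms => f u m && all2 f L ms
  | _, _ => false

theorem all2_spec {f : List ℕ → ℕ → Bool} : ∀ {L : List (List ℕ)} {ms : List ℕ}, all2 f L ms = true →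
    List.Forall₂ (fun u m => f u m = true) L ms
  | [], [], _ => List.Forall₂.nil
  | [], _ :: _, h => by simp [all2] at h
  | _ :: _, [], h => by simp [all2] at h
  | u :: L, m :: ms, h => by
    simp only [all2, Bool.and_eq_true] at h
    exact List.Forall₂.cons h.1 (all2_spec h.2)

end abs

/-! ### Words of `Fi₂₄` -/

open Cfsg.Agent.Lib.F24Base Cfsg.Agent.Lib.F24Rep Cfsg.Agent.Lib.F24Main Cfsg.Agent.Lib.F24Cl Cfsg.Spor
open Cfsg.Agent.Lib.Fi24K45 Cfsg.Agent.Lib.Fi24Scan45 Cfsg.Agent.Lib.Fi24Cent45 Cfsg.Agent.Lib.Fi24LT45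

/-- The element of a word. The first letter acts first. -/
noncomputable abbrev E (w : List ℕ) : Fi24 := ev genF w

theorem E_append (u v : List ℕ) : E (u ++ v) = E v * E u := ev_append genF u v

/-- The walk of a point along a word. -/
noncomputable def wk (w : List ℕ) (p : ℕ) : ℕ := walkT lT w p

theorem wk_eq (w : List ℕ) {p : ℕ} (hp : p < nP) : wk w p = Phi (E w) p := by
  rw [wk, ← lT_eq, walkT_eq _ hp]

/-- The points of the letters. -/
def bsF : List ℕ := [51, 24, 12, 6, 2, 0, 113, 249, 510, 964, 116, 254]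

theorem lp_mem {g : ℕ} (hg : g < 12) : lp g ∈ bsF := by
  interval_cases g <;> decide

theorem bsF_lt : ∀ b ∈ bsF, b < nP := by decide

/-- The check of an equality of words. -/
noncomputable def eqF (u v : List ℕ) : Bool := allL (fun b => Nat.beq (wk u b) (wk v b)) bsF

theorem eqF_sound {u v : List ℕ} (h : eqF u v = true) : E u = E v := by
  have h1 : (E v)⁻¹ * E u = 1 := by
    apply eq_one_of_fix
    intro g hg
    have h2 : wk u (lp g) = wk v (lp g) := beq_true (allL_spec h (lp_mem hg))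
    have hb := bsF_lt _ (lp_mem hg)
    rw [wk_eq u hb, wk_eq v hb] at h2
    rw [map_mul, Equiv.Perm.mul_apply, h2, map_inv]
    simp
  rwa [inv_mul_eq_one, eq_comm] at h1

/-- Repetition of a word. -/
def repW : ℕ → List ℕ → List ℕ
  | 0, _ => []
  | k + 1, w => w ++ repW k w

theorem E_repW (k : ℕ) (w : List ℕ) : E (repW k w) = E w ^ k := by
  induction k with
  | zero => simp [repW]
  | succ k ih => rw [repW, E_append, ih, pow_succ]

/-- The word of a normal form. -/
def nfE : List (List ℕ) → ℕ → List ℕ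
  | [], _ => []
  | w :: L, a => nfE L (a / 3) ++ repW (a % 3) w

theorem E_nfE : ∀ (L : List (List ℕ)) (a : ℕ), E (nfE L a) = nfG (L.map E) a
  | [], _ => by simp [nfE, nfG]
  | w :: L, a => by
    rw [nfE, E_append, E_repW, E_nfE L, List.map_cons, nfG]

/-! ### Words cut into segments -/

open Cfsg.Agent.Lib.CoxCert (wl wl_eq)

/-- The element of a list of segments. -/
noncomputable abbrev EP (P : List (List ℕ)) : Fi24 := E P.flatten

theorem EP_nil : EP [] = 1 := rfl

theorem EP_cons (s : List ℕ) (P : List (List ℕ)) : EP (s :: P) = EP P * E s := by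
  rw [EP, List.flatten_cons, E_append]

theorem EP_append (P Q : List (List ℕ)) : EP (P ++ Q) = EP Q * EP P := by
  rw [EP, List.flatten_append, E_append]

/-- The walk along segments. -/
noncomputable def wkP (P : List (List ℕ)) : ℕ → ℕ :=
  List.rec (motive := fun _ => ℕ → ℕ) (fun p => p) (fun s _ ih p => wl (wk s p) ih) P

theorem wkP_eq (P : List (List ℕ)) {p : ℕ} (hp : p < nP) : wkP P p = Phi (EP P) p := by
  induction P generalizing p with
  | nil => simp [wkP, EP_nil]
  | cons s P ih =>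
    show wl (wk s p) (wkP P) = _
    rw [wl_eq, wk_eq s hp, ih (Phi_lt _ hp), EP_cons, map_mul, Equiv.Perm.mul_apply]

/-- The check of an equality of words cut into segments. -/
noncomputable def eqP (P Q : List (List ℕ)) : Bool := allL (fun b => Nat.beq (wkP P b) (wkP Q b)) bsF

theorem eqP_sound {P Q : List (List ℕ)} (h : eqP P Q = true) : EP P = EP Q := by
  have h1 : (EP Q)⁻¹ * EP P = 1 := by
    apply eq_one_of_fix
    intro g hg
    have h2 : wkP P (lp g) = wkP Q (lp g) := beq_true (allL_spec h (lp_mem hg))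
    have hb := bsF_lt _ (lp_mem hg)
    rw [wkP_eq P hb, wkP_eq Q hb] at h2
    rw [map_mul, Equiv.Perm.mul_apply, h2, map_inv]
    simp
  rwa [inv_mul_eq_one, eq_comm] at h1

theorem allL_of' {f : ℕ → Bool} : ∀ {l : List ℕ}, (∀ a ∈ l, f a = true) → allL f l = true
  | [], _ => rfl
  | b :: l, h => by
    have e : allL f (b :: l) = cond (f b) (allL f l) false := rfl
    rw [e, h b List.mem_cons_self]
    exact allL_of' fun a ha => h a (List.mem_cons_of_mem _ ha)

theorem eqP_false {P Q : List (List ℕ)} (h : eqP P Q = false) : EP P ≠ EP Q := by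
  intro he
  have : eqP P Q = true := by
    apply allL_of'
    intro b hb
    have hb' := bsF_lt b hb
    rw [wkP_eq P hb', wkP_eq Q hb', he, Nat.beq_refl]
  rw [this] at h
  simp at h

/-- Repetition as segments. -/
def rpS : ℕ → List ℕ → List (List ℕ)
  | 0, _ => []
  | k + 1, w => w :: rpS k w

theorem EP_rpS (k : ℕ) (w : List ℕ) : EP (rpS k w) = E w ^ k := by
  induction k with
  | zero => simp [rpS, EP_nil]
  | succ k ih => rw [rpS, EP_cons, ih, pow_succ]

/-- A normal form as segments. -/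
def nfS : List (List ℕ) → ℕ → List (List ℕ)
  | [], _ => []
  | w :: L, a => nfS L (a / 3) ++ rpS (a % 3) w

theorem EP_nfS : ∀ (L : List (List ℕ)) (a : ℕ), EP (nfS L a) = nfG (L.map E) a
  | [], _ => by simp [nfS, nfG, EP_nil]
  | w :: L, a => by
    rw [nfS, EP_append, EP_rpS, EP_nfS L, List.map_cons, nfG]

/-- A conjugate, from a check on segments. -/
theorem conj_of_eqP {u g : List ℕ} {Q : List (List ℕ)} (h : EP [u, g] = EP (g :: Q)) : E g * E u * (E g)⁻¹ = EP Q := by
  rw [EP_cons, EP_cons, EP_cons, EP_nil, one_mul] at h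
  rw [h]
  group

/-- A conjugate, from a check of words: `g` first, the result read in the letters. -/
theorem conj_of_eq {u g v : List ℕ} (h : E (u ++ g) = E (g ++ v)) : E g * E u * (E g)⁻¹ = E v := by
  rw [E_append, E_append] at h
  rw [h]
  group

theorem cube_of_eq {t v : List ℕ} (h : E (t ++ t ++ t) = E v) : E t ^ 3 = E v := by
  rw [← h, E_append, E_append, pow_succ, pow_two, mul_assoc]

end Cfsg.Agent.Lib.F3C
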