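import Mathlib
import Cfsg.Agent.Lib.F3C.Abs
import Cfsg.Agent.Lib.F3C.Data
import Cfsg.Agent.TcChain36.O7C.Rep
import Cfsg.Agent.TcChain36.O7C.Pc

/-!
# A Sylow 3-subgroup of `Fi₂₄` over an elementary abelian subgroup of order `3^7`
-/

set_option autoImplicit false
set_option maxRecDepth 100000
set_option linter.all false

namespace Cfsg.Agent.Lib.F3C

open Cfsg.Agent.Lib.PcClass36 Cfsg.Agent.Lib.CoxCert
open Cfsg.Agent.Lib.OutTree36 (allL allL_spec beq_true allN allN_spec TabRep evL evL_cons evL_nil evL_append)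
open Cfsg.Agent.Lib.F24Base Cfsg.Agent.Lib.F24Rep Cfsg.Agent.Lib.F24Main Cfsg.Agent.Lib.F24Cl Cfsg.Spor
open Cfsg.Agent.Lib.Fi24K45 Cfsg.Agent.Lib.Fi24Scan45 Cfsg.Agent.Lib.Fi24Cent45 Cfsg.Agent.Lib.Fi24LT45

/-- The basis of `A`. -/
noncomputable def vs : List Fi24 := WL.map E

/-- The elements of `A`. -/
noncomputable def vv (a : ℕ) : Fi24 := nfG vs a

theorem vs_len : vs.length = 7 := rfl

/-! ### The chain of `A` -/

/-- The check of a list of commuting elements with witnesses. -/
noncomputable def chkW : List (List ℕ) → List ℕ → Bool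
  | [], [] => true
  | t :: ts, p :: ps =>
    ts.all (fun u => eqF (t ++ u) (u ++ t) && Nat.beq (wk u p) p) && eqF (t ++ t ++ t) [] && !(Nat.beq (wk t p) p) &&
      Nat.blt p nP && chkW ts ps
  | _, _ => false

theorem chkW_sound : ∀ {L : List (List ℕ)} {ps : List ℕ}, chkW L ps = true → PcOK (L.map E) ∧ ElemL (L.map E)
  | [], [], _ => ⟨PcOK.nil, by simp [ElemL]⟩
  | [], _ :: _, h => by simp [chkW] at h
  | _ :: _, [], h => by simp [chkW] at h
  | t :: ts, p :: ps, h => by
    simp only [chkW, Bool.and_eq_true, List.all_eq_true] at h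
    obtain ⟨⟨⟨⟨h1, h2⟩, h3⟩, h4⟩, h5⟩ := h
    obtain ⟨hP, hEl⟩ := chkW_sound h5
    have hp : p < nP := Nat.le_of_ble_eq_true h4
    have ht3 : E t ^ 3 = 1 := cube_of_eq (eqF_sound h2)
    have hcm : ∀ u ∈ ts, E u * E t = E t * E u := by
      intro u hu
      have := eqF_sound (h1 u hu).1
      rw [E_append, E_append] at this
      exact this
    have hfx : ∀ u ∈ ts.map E, Phi u p = p := by
      intro u hu
      obtain ⟨w, hw, rfl⟩ := List.mem_map.mp hu
      have := beq_true (h1 w hw).2
      rwa [wk_eq _ hp] at this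
    rw [List.map_cons]
    refine ⟨PcOK.cons hP ?_ ⟨0, ?_⟩ ?_, ?_, ?_⟩
    · intro u hu
      obtain ⟨w, hw, rfl⟩ := List.mem_map.mp hu
      obtain ⟨m, hm⟩ := exists_nfG_of_mem hu
      refine ⟨m, ?_⟩
      rw [← hm, mul_assoc, hcm w hw]
      group
    · rw [nfG_zero, ht3]
    · intro a _ he
      have h6 := fix_nfG (Φ := Phi) hfx a
      rw [← he, ← wk_eq _ hp] at h6
      rw [h6] at h3
      simp at h3
    · intro u hu v hv
      rcases List.mem_cons.mp hu with rfl | hu'
      · rcases List.mem_cons.mp hv with rfl | hv'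
        · rfl
        · obtain ⟨w, hw, rfl⟩ := List.mem_map.mp hv'
          exact (hcm w hw).symm
      · rcases List.mem_cons.mp hv with rfl | hv'
        · obtain ⟨w, hw, rfl⟩ := List.mem_map.mp hu'
          exact hcm w hw
        · exact hEl.1 u hu' v hv'
    · intro u hu
      rcases List.mem_cons.mp hu with rfl | hu'
      · exact ht3
      · exact hEl.2 u hu'

set_option Elab.async false in
theorem chkW_ok : chkW WL witL = true := by decide +kernel

theorem vs_pc : PcOK vs := (chkW_sound chkW_ok).1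

theorem vs_el : ElemL vs := (chkW_sound chkW_ok).2

theorem vv_add (a b : ℕ) : vv (addN 7 a b) = vv a * vv b := nfG_addN vs_el a b

theorem vv_inj {a b : ℕ} (ha : a < 2187) (hb : b < 2187) (h : vv a = vv b) : a = b :=
  pc_inj vs_pc (a := a) (b := b) (by rw [vs_len]; exact ha) (by rw [vs_len]; exact hb) h

theorem vv_comm (a b : ℕ) : vv a * vv b = vv b * vv a := by
  have h : ∀ u ∈ vs, u * vv b = vv b * u := fun u hu => comm_nfG (fun v hv => vs_el.1 u hu v hv) b
  symm
  have h2 : ∀ (ts : List Fi24), (∀ u ∈ ts, u * vv b = vv b * u) → ∀ a, vv b * nfG ts a = nfG ts a * vv b := by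
    intro ts hts a
    exact comm_nfG (fun u hu => (hts u hu).symm) a
  exact h2 vs h a

theorem vv_mem {a : ℕ} : vv a ∈ clL vs := nfG_mem vs a

theorem exists_vv {x : Fi24} (hx : x ∈ clL vs) : ∃ a, a < 2187 ∧ x = vv a := by
  obtain ⟨a, ha, rfl⟩ := pc_form vs_pc hx
  exact ⟨a, by rw [vs_len] at ha; exact ha, rfl⟩

theorem vv_zero : vv 0 = 1 := nfG_zero vs

theorem vv_nfE (a : ℕ) : E (nfE WL a) = vv a := E_nfE WL a

theorem vv_nfS (a : ℕ) : EP (nfS WL a) = vv a := EP_nfS WL a

theorem vv_lt_of_cube (a : ℕ) : vv a ^ 3 = 1 := by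
  have h : ∀ (ts : List Fi24), ElemL ts → ∀ a, nfG ts a ^ 3 = 1 := by
    intro ts hts a
    induction ts generalizing a with
    | nil => simp [nfG]
    | cons t ts ih =>
      have hs : ElemL ts := ⟨fun u hu v hv => hts.1 u (List.mem_cons_of_mem _ hu) v (List.mem_cons_of_mem _ hv),
        fun u hu => hts.2 u (List.mem_cons_of_mem _ hu)⟩
      have hc : Commute t (nfG ts (a / 3)) :=
        comm_nfG (fun u hu => hts.1 t List.mem_cons_self u (List.mem_cons_of_mem _ hu)) _
      have hc2 : Commute (t ^ (a % 3)) (nfG ts (a / 3)) := hc.pow_left _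
      simp only [nfG]
      rw [hc2.mul_pow, ih hs, mul_one, ← pow_mul, mul_comm, pow_mul, hts.2 t List.mem_cons_self, one_pow]
  exact h vs vs_el a

/-! ### Conjugates of `A` -/

/-- `g` acts on the codes by `f`. -/
def Act (g : Fi24) (f : ℕ → ℕ) : Prop := ∀ p, p < 2187 → g * vv p * g⁻¹ = vv (f p)

/-- The check of the images of the basis under a word. -/
noncomputable def chkLin (g : List ℕ) (m : List ℕ) : Bool :=
  all2 (fun w q => eqP [w, g] (g :: nfS WL q)) WL m

theorem conj_vv {g m : List ℕ} (h : chkLin g m = true) (a : ℕ) : E g * vv a * (E g)⁻¹ = vv (lin 7 m a) := by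
  have h1 := all2_spec h
  have h2 : List.Forall₂ (fun u q => E g * u * (E g)⁻¹ = nfG vs q) vs m := by
    unfold vs
    rw [List.forall₂_map_left_iff]
    refine h1.imp ?_
    intro w q hq
    have h3 := conj_of_eqP (eqP_sound hq)
    rw [h3, EP_nfS]
  exact conj_nfG vs_el (E g) h2 a

/-! ### The lifts -/

open Cfsg.Agent.TcChain36.O7C (ap bsL ixL csL Lt Gp H hbs hbn hPc yW)

theorem mem_nfW : ∀ {ix : List ℕ} {a k : ℕ}, k ∈ nfW ix a → k ∈ ix
  | [], _, _, h => by simp [nfW] at h
  | i :: ix, a, k, h => by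
    rw [nfW_cons, List.mem_append] at h
    rcases h with h | h
    · rw [List.mem_replicate] at h
      rw [h.2]
      exact List.mem_cons_self
    · exact List.mem_cons_of_mem _ (mem_nfW h)

/-- The lift of a letter. -/
noncomputable def Lf (i : ℕ) : Fi24 := E (LWL.getD i [])

/-- The images of the basis under a letter. -/
noncomputable def apM (i : ℕ) : List ℕ := [ap i 1, ap i 3, ap i 9, ap i 27, ap i 81, ap i 243, ap i 729]

/-- The check of a lift. -/
noncomputable def chkLf (i : ℕ) : Bool := chkLin (LWL.getD i []) (apM i)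

/-- The check of the table. -/
noncomputable def chkTb (f : ℕ → ℕ) (m : List ℕ) : Bool := allN 2187 (fun p => Nat.beq (lin 7 m p) (f p))

theorem act_of_chk {g m : List ℕ} {f : ℕ → ℕ} (h1 : chkLin g m = true) (h2 : chkTb f m = true) : Act (E g) f := by
  intro p hp
  rw [conj_vv h1, beq_true (allN_spec h2 hp)]


/-- The lifted words of the representatives. -/
noncomputable def Yy (j : ℕ) : List ℕ := YWL.getD j []

/-- The images of the basis under a representative. -/
noncomputable def ayM (j : ℕ) : List ℕ := (List.range 7).map fun k => Cfsg.Agent.Lib.OutTree36.ev ap (yW j) (3 ^ k)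

/-- The check of the upper part of the chain. -/
noncomputable def chkTop : List ℕ → List (List ℕ) → Bool
  | [], [] => true
  | i :: ix, qs :: qss =>
    all2 (fun u q => eqP [LWL.getD i [], u] (nfS (ix.map (fun k => LWL.getD k []) ++ WL) q ++ [LWL.getD i []]))
      (ix.map (fun k => LWL.getD k []) ++ WL) qs &&
    eqP [LWL.getD i [], LWL.getD i [], LWL.getD i []] [] && Nat.blt i 17 && chkTop ix qss
  | _, _ => false

end Cfsg.Agent.Lib.F3C
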