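import Mathlib
import Cfsg.Agent.Lib.F3C.PcA

/-!
# Checks of words in `Fi₂₄`
-/

set_option autoImplicit false
set_option maxRecDepth 100000
set_option linter.all false
set_option maxHeartbeats 0
set_option Elab.async false

namespace Cfsg.Agent.Lib.F3C

open Cfsg.Agent.TcChain36.O7C (ap bsL ixL csL Lt Gp H hbs hbn hPc yW)

theorem y_chk1 : (List.range 7).all (fun j => chkLin (Yy j) (ayM j)) = true := by decide +kernel

end Cfsg.Agent.Lib.F3C
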