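import Mathlib
import Cfsg.Agent.Lib.F3C.PcA
import Cfsg.Agent.Lib.F3C.ChkA
import Cfsg.Agent.Lib.F3C.ChkB
import Cfsg.Agent.Lib.F3C.ChkC
import Cfsg.Agent.Lib.F3C.ChkD
import Cfsg.Agent.Lib.F3C.ChkE

/-!
# A Sylow 3-subgroup of `Fi₂₄` over an elementary abelian subgroup of order `3^7`
-/

set_option autoImplicit false
set_option maxRecDepth 100000
set_option linter.all false

namespace Cfsg.Agent.Lib.F3C

open Cfsg.Agent.Lib.PcClass36 Cfsg.Agent.Lib.CoxCert
open Cfsg.Agent.Lib.OutTree36 (allL allL_spec beq_true allN allN_spec TabRep evL evL_cons evL_nil evL_append)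
open Cfsg.Agent.Lib.F24Base Cfsg.Agent.Lib.F24Rep Cfsg.Agent.Lib.F24Main Cfsg.Agent.Lib.F24Cl Cfsg.Spor
open Cfsg.Agent.Lib.Fi24K45 Cfsg.Agent.Lib.Fi24Scan45 Cfsg.Agent.Lib.Fi24Cent45 Cfsg.Agent.Lib.Fi24LT45

open Cfsg.Agent.TcChain36.O7C (ap bsL ixL csL Lt Gp H hbs hbn hPc yW)

theorem lf_chk1 : (List.range 17).all chkLf = true := by
  have e : List.range 17 = List.range' 0 8 ++ List.range' 8 9 := by decide
  rw [e, List.all_append, lf_chk1a, lf_chk1b]
  rfl

theorem lf_act {i : ℕ} (hi : i < 17) : Act (Lf i) (ap i) :=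
  act_of_chk (List.all_eq_true.mp lf_chk1 i (List.mem_range.mpr hi))
    (List.all_eq_true.mp lf_chk2 i (List.mem_range.mpr hi))

theorem ev_lt_o7 (w : List ℕ) {p : ℕ} (hp : p < 2187) : Cfsg.Agent.Lib.OutTree36.ev ap w p < 2187 := H.ev_lt w hp

theorem act_evL {w : List ℕ} (hw : ∀ i ∈ w, i < 17) : Act (evL Lf w) (Cfsg.Agent.Lib.OutTree36.ev ap w) := by
  induction w with
  | nil =>
    intro p _
    simp
  | cons i w ih =>
    intro p hp
    have h1 := ih (fun a ha => hw a (List.mem_cons_of_mem _ ha)) p hp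
    have h2 := lf_act (hw i List.mem_cons_self) _ (ev_lt_o7 w hp)
    rw [evL_cons, Cfsg.Agent.Lib.OutTree36.ev_cons, ← h2, ← h1]
    group

theorem y_act {j : ℕ} (hj : j < 7) : Act (E (Yy j)) (Cfsg.Agent.Lib.OutTree36.ev ap (yW j)) :=
  act_of_chk (List.all_eq_true.mp y_chk1 j (List.mem_range.mpr hj))
    (List.all_eq_true.mp y_chk2 j (List.mem_range.mpr hj))

/-! ### The chain over `A` -/

theorem act_vv (a : ℕ) : Act (vv a) id := by
  intro p _
  show vv a * vv p * (vv a)⁻¹ = vv p
  rw [vv_comm]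
  group

theorem act_unique {g : Fi24} {f k : ℕ → ℕ} (h1 : Act g f) (h2 : Act g k) (hf : ∀ p, p < 2187 → f p < 2187)
    (hk : ∀ p, p < 2187 → k p < 2187) {p : ℕ} (hp : p < 2187) : f p = k p :=
  vv_inj (hf p hp) (hk p hp) ((h1 p hp).symm.trans (h2 p hp))

theorem act_mul_vv {g : Fi24} {f : ℕ → ℕ} (h : Act g f) (a : ℕ) : Act (g * vv a) f := by
  intro p hp
  rw [← h p hp, mul_inv_rev]
  have : g * vv a * vv p * ((vv a)⁻¹ * g⁻¹) = g * (vv a * vv p * (vv a)⁻¹) * g⁻¹ := by group
  rw [this, vv_comm a p]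
  group

/-- Two elements of `Ω₇(3)` acting in the same way are equal. -/
theorem gp_ext {u v : List ℕ} (h : ∀ p, p < 2187 → Cfsg.Agent.Lib.OutTree36.ev ap u p = Cfsg.Agent.Lib.OutTree36.ev ap v p) :
    evL Lt u = evL Lt v := by
  have h1 : (evL Lt v)⁻¹ * evL Lt u = 1 := by
    apply hbs
    intro b hb
    have hb' := hbn b hb
    have h2 := h b hb'
    rw [← H.ev_eq u hb', ← H.ev_eq v hb'] at h2
    rw [map_mul, Equiv.Perm.mul_apply, h2, map_inv]
    simp
  rwa [inv_mul_eq_one, eq_comm] at h1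

theorem map_rest (ix : List ℕ) : (ix.map (fun k => LWL.getD k []) ++ WL).map E = ix.map Lf ++ vs := by
  rw [List.map_append, List.map_map]
  rfl

theorem chkTop_letters : ∀ {ix : List ℕ} {qss : List (List ℕ)}, chkTop ix qss = true → ∀ i ∈ ix, i < 17
  | [], [], _ => by simp
  | [], _ :: _, h => by simp [chkTop] at h
  | _ :: _, [], h => by simp [chkTop] at h
  | i :: ix, qs :: qss, h => by
    simp only [chkTop, Bool.and_eq_true] at h
    obtain ⟨⟨⟨h1, h2⟩, h3⟩, h4⟩ := h
    intro a ha
    rcases List.mem_cons.mp ha with rfl | ha'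
    · exact Nat.le_of_ble_eq_true h3
    · exact chkTop_letters h4 a ha'

theorem pc_top : ∀ {ix : List ℕ} {qss : List (List ℕ)}, PcOK (ix.map Lt) → chkTop ix qss = true →
    PcOK (ix.map Lf ++ vs)
  | [], [], _, _ => vs_pc
  | [], _ :: _, _, h => by simp [chkTop] at h
  | _ :: _, [], _, h => by simp [chkTop] at h
  | i :: ix, qs :: qss, hG, h => by
    have hlet := chkTop_letters h
    simp only [chkTop, Bool.and_eq_true] at h
    obtain ⟨⟨⟨h1, h2⟩, h3⟩, h4⟩ := h
    rw [List.map_cons] at hG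
    cases hG with
    | cons hG1 hGc hGp hGn =>
      have hIH := pc_top hG1 h4
      have hi : i < 17 := Nat.le_of_ble_eq_true h3
      have hlet' : ∀ a ∈ ix, a < 17 := fun a ha => hlet a (List.mem_cons_of_mem _ ha)
      rw [List.map_cons, List.cons_append]
      refine PcOK.cons hIH ?_ ⟨0, ?_⟩ ?_
      · intro u hu
        rw [← map_rest, List.mem_map] at hu
        obtain ⟨w, hw, rfl⟩ := hu
        have h5 := all2_spec h1
        obtain ⟨q, hq⟩ : ∃ q, eqP [LWL.getD i [], w] (nfS (ix.map (fun k => LWL.getD k []) ++ WL) q ++ [LWL.getD i []]) = true := by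
          have : ∀ {L : List (List ℕ)} {ms : List ℕ}, List.Forall₂ (fun u m => eqP [LWL.getD i [], u] (nfS (ix.map (fun k => LWL.getD k []) ++ WL) m ++ [LWL.getD i []]) = true) L ms →
              ∀ w ∈ L, ∃ q, eqP [LWL.getD i [], w] (nfS (ix.map (fun k => LWL.getD k []) ++ WL) q ++ [LWL.getD i []]) = true := by
            intro L ms hL
            induction hL with
            | nil => simp
            | cons h6 _ ih =>
              intro w hw
              rcases List.mem_cons.mp hw with rfl | hw'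
              · exact ⟨_, h6⟩
              · exact ih w hw'
          exact this h5 w hw
        refine ⟨q, ?_⟩
        have h6 := eqP_sound hq
        rw [EP_append, EP_nfS, map_rest, EP_cons, EP_cons, EP_cons, EP_nil, one_mul] at h6
        show (E (LWL.getD i []))⁻¹ * E w * E (LWL.getD i []) = _
        rw [mul_assoc, h6]
        group
      · rw [nfG_zero]
        have h6 := eqP_sound h2
        rw [EP_cons, EP_cons, EP_cons, EP_nil, one_mul] at h6
        show E (LWL.getD i []) ^ 3 = 1
        rw [pow_succ, pow_two]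
        exact h6
      · intro a _ he
        rw [nfG_append] at he
        set a1 := a % 3 ^ (ix.map Lf).length with ha1
        set a2 := a / 3 ^ (ix.map Lf).length with ha2
        have hlen : (ix.map Lf).length = ix.length := List.length_map _
        have ha1lt : a1 < 3 ^ ix.length := by
          rw [ha1, hlen]
          exact Nat.mod_lt _ (by positivity)
        rw [← evL_nfW] at he
        have hA1 : Act (Lf i) (ap i) := lf_act hi
        have hw : ∀ k ∈ nfW ix a1, k < 17 := by
          intro k hk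
          exact hlet' k (mem_nfW hk)
        have hA2 : Act (Lf i) (Cfsg.Agent.Lib.OutTree36.ev ap (nfW ix a1)) := by
          rw [he]
          exact act_mul_vv (act_evL hw) a2
        have h7 : ∀ p, p < 2187 → Cfsg.Agent.Lib.OutTree36.ev ap [i] p = Cfsg.Agent.Lib.OutTree36.ev ap (nfW ix a1) p := by
          intro p hp
          exact act_unique hA1 hA2 (fun p hp => ev_lt_o7 [i] hp) (fun p hp => ev_lt_o7 _ hp) hp
        have h8 := gp_ext h7
        rw [evL_nfW] at h8
        apply hGn a1 (by rw [List.length_map]; exact ha1lt)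
        simpa using h8

end Cfsg.Agent.Lib.F3C
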