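import Mathlib
import Cfsg.Agent.Lib.F3C.PcB
import Cfsg.Agent.Lib.CentSyl36
import Cfsg.Agent.TcChain36.O7C.Cover

/-!
# The elementary abelian subgroup of order `3^7` of `Fi₂₄` is self-centralising
-/

set_option autoImplicit false
set_option maxRecDepth 100000
set_option linter.all false

namespace Cfsg.Agent.Lib.F3C

open Cfsg.Agent.Lib.PcClass36 Cfsg.Agent.Lib.CoxCert
open Cfsg.Agent.Lib.OutTree36 (allL allL_spec beq_true allN allN_spec TabRep evL evL_cons evL_nil evL_append preM testBit_preM)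
open Cfsg.Agent.Lib.F24Base Cfsg.Agent.Lib.F24Rep Cfsg.Agent.Lib.F24Main Cfsg.Agent.Lib.F24Cl Cfsg.Spor Cfsg.Agent.Lib.F24Psi
open Cfsg.Agent.Lib.Fi24K45 Cfsg.Agent.Lib.Fi24Scan45 Cfsg.Agent.Lib.Fi24Cent45 Cfsg.Agent.Lib.Fi24LT45
open Cfsg.Agent.TcChain36.O7C (ap bsL ixL csL Lt Gp H hbs hbn hPc yW)

/-- The Sylow chain. -/
noncomputable def TS : List Fi24 := ixL.map Lf ++ vs

theorem ts_pc : PcOK TS := pc_top (pcOK_of H hbs hbn hPc) top_chk

theorem ts_len : TS.length = 16 := rfl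

theorem ix_lt : ∀ i ∈ ixL, i < 17 := by decide

theorem nfW_lt (a : ℕ) : ∀ k ∈ nfW ixL a, k < 17 := fun k hk => ix_lt k (mem_nfW hk)

theorem ts_split (n : ℕ) : nfG TS n = evL Lf (nfW ixL (n % 3 ^ 9)) * vv (n / 3 ^ 9) := by
  rw [TS, nfG_append, ← evL_nfW]
  rfl

theorem act_nf (n : ℕ) : Act (nfG TS n) (Cfsg.Agent.Lib.OutTree36.ev ap (nfW ixL (n % 3 ^ 9))) := by
  rw [ts_split]
  exact act_mul_vv (act_evL (nfW_lt _)) _

/-! ### Elements of `C(A)` of order prime to 3 -/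

/-- A mask invariant under an element. -/
def Inv (y : Fi24) (M : ℕ) : Prop := ∀ u, u < nP → M.testBit (Phi y u) = M.testBit u

theorem inv_of_comm {y t : Fi24} {M : ℕ} (hM : FixM M t) (h : y * t = t * y) : Inv y M := by
  intro u hu
  have hu' := Phi_lt y hu
  rw [Bool.eq_iff_iff, hM _ hu', hM _ hu]
  have e : Phi t (Phi y u) = Phi y (Phi t u) := by
    rw [← Equiv.Perm.mul_apply, ← map_mul, ← h, map_mul, Equiv.Perm.mul_apply]
  rw [e]
  exact (Phi y).injective.eq_iff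

theorem atom_inv {y : Fi24} (Ms : List ℕ) (hG : ∀ M ∈ Ms, Inv y M) {u : ℕ} (hu : u < nP) :
    (atom Ms u).testBit (Phi y u) = true := by
  induction Ms with
  | nil =>
    exact full_bit _ _ (Phi_lt y hu)
  | cons M Ms ih =>
    have e : atom (M :: Ms) u = Bool.rec (Nat.xor (atom Ms u) (Nat.land (atom Ms u) M)) (Nat.land (atom Ms u) M) (bitN M u) := by
      have e0 : atom (M :: Ms) u = wl (atom Ms u) (fun Y => wl (Nat.land Y M) fun Z => Bool.rec (Nat.xor Y Z) Z (bitN M u)) := rfl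
      rw [e0, wl_eq, wl_eq]
    have h1 := ih fun M' hM' => hG M' (List.mem_cons_of_mem _ hM')
    have h2 := hG M List.mem_cons_self u hu
    rw [e, bitN_eq]
    cases h3 : M.testBit u with
    | true =>
      show (Nat.land (atom Ms u) M).testBit _ = true
      rw [land_bit, h1, h2, h3]
      rfl
    | false =>
      show (Nat.xor (atom Ms u) (Nat.land (atom Ms u) M)).testBit _ = true
      rw [xor_bit, land_bit, h1, h2, h3]
      rfl

/-- Forcing a list of numbers. -/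
noncomputable def forceMs (L : List ℕ) : (List ℕ → Bool) → Bool :=
  List.rec (motive := fun _ => (List ℕ → Bool) → Bool) (fun k => k [])
    (fun x _ ih k => wl x (fun M => ih (fun Ms => k (M :: Ms)))) L

theorem forceMs_eq (L : List ℕ) (k : List ℕ → Bool) : forceMs L k = k L := by
  induction L generalizing k with
  | nil => rfl
  | cons x L ih =>
    show wl x (fun M => forceMs L (fun Ms => k (M :: Ms))) = _
    rw [wl_eq, ih]

/-- The check of a pin. -/
noncomputable def pinChk (Ms : List ℕ) (x : ℕ × List ℕ × ℕ × ℕ) : Bool :=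
  wl (wk x.2.1 0) fun p =>
    Nat.blt x.1 7 && Nat.beq (wk (WL.getD x.1 []) p) x.2.2.1 && Nat.beq (wk (WL.getD x.1 []) x.2.2.1) x.2.2.2 &&
      Nat.beq (atom Ms p) (preM [p, x.2.2.1, x.2.2.2])

/-- The mask of the transposition of a word. -/
noncomputable def tMask (u : List ℕ) : ℕ := Cfsg.Agent.Lib.TcBits.wordApply prF u A0L

/-- Conjugating words from the rotation `[4, 5]`. -/
def mgL : List (List ℕ) := [[5],[3,2,1,5,4,3,2,5,4,3],[3,2,1,0,5,10,11,4,3,2,1,0,5,4,3,2,1,10,0],[3,2,1,0,6,10,0,11,10,4,3,2,1,0,5,4,3,2,1,6,0],[3,2,1,0,6,10,0,11,10,4,3,2,1,0,5,4,3,6,7,8,10,0,1,11,10,0,6,7],[3,2,1,0,6,10,0,11,10,4,3,2,1,0,5,4,3,2,1,6,0,7,8],[3,2,1,0,6,10,0,11,10,4,3,2,1,0,5,4,3,2,1,6,0,7,8,9],[3,2,1,0,5,6,7,10,0,6,11,10,0,4,3,2,1,0,5,4,3,6,7,10,0,6,11,10,0]]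

/-- A conjugate of a mask. -/
noncomputable def cMask (M₀ : ℕ) (g : List ℕ) : ℕ := Cfsg.Agent.Lib.TcBits.wordApply prF g M₀

/-- Equality of numbers. -/
noncomputable def bq (a b : ℕ) : Bool := Nat.beq a b

/-- The check for `C(A)`. -/
noncomputable def centChk : Bool :=
  all2 (fun g c => Nat.blt c 2187 && eqP [g.reverse, [4, 5], g] (nfS WL c)) mgL mcL &&
  wl (fixW [4, 5]) fun M₀ =>
  forceMs (mgL.map (cMask M₀)) fun Ms =>
    pinL.all (pinChk Ms) &&
    forceMs (pinL.map fun x => tMask x.2.1) fun Ts =>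
      bq (atom (Ts ++ Ms) 6) (Nat.pow 2 6) && bq (atom (Ts ++ Ms) 51) (Nat.pow 2 51)

end Cfsg.Agent.Lib.F3C
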