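import Mathlib
import Cfsg.Agent.Lib.F3C.Cent

/-!
# Checks of words in `Fi₂₄`
-/

set_option autoImplicit false
set_option maxRecDepth 100000
set_option linter.all false
set_option maxHeartbeats 0
set_option Elab.async false

namespace Cfsg.Agent.Lib.F3C

theorem cent_chk : centChk = true := by decide +kernel

theorem pin_pts : pinL.map (fun x => wk x.2.1 0) = [24, 12, 2, 0, 113, 249, 510, 964, 116, 254, 383] := by decide +kernel

end Cfsg.Agent.Lib.F3C
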