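import Mathlib
import Cfsg.Agent.Lib.F3C.ChkF

/-!
# The elementary abelian subgroup of order `3^7` of `Fi₂₄` is self-centralising, II
-/

set_option autoImplicit false
set_option maxRecDepth 100000
set_option linter.all false

namespace Cfsg.Agent.Lib.F3C

open Cfsg.Agent.Lib.PcClass36 Cfsg.Agent.Lib.CoxCert
open Cfsg.Agent.Lib.OutTree36 (allL allL_spec beq_true allN allN_spec TabRep evL evL_cons evL_nil evL_append preM testBit_preM)
open Cfsg.Agent.Lib.F24Base Cfsg.Agent.Lib.F24Rep Cfsg.Agent.Lib.F24Main Cfsg.Agent.Lib.F24Cl Cfsg.Spor Cfsg.Agent.Lib.F24Psi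
open Cfsg.Agent.Lib.Fi24K45 Cfsg.Agent.Lib.Fi24Scan45 Cfsg.Agent.Lib.Fi24Cent45 Cfsg.Agent.Lib.Fi24LT45
open Cfsg.Agent.TcChain36.O7C (ap bsL ixL csL Lt Gp H hbs hbn hPc yW)

/-- The masks. -/
noncomputable def allMs : List ℕ := (pinL.map fun x => tMask x.2.1) ++ (mgL.map (cMask (fixW [4, 5])))

/-- A point is alone in its atom. -/
noncomputable def sngl (u : ℕ) : Bool := bq (atom allMs u) (Nat.pow 2 u)

theorem cent_parts :
    all2 (fun g c => Nat.blt c 2187 && eqP [g.reverse, [4, 5], g] (nfS WL c)) mgL mcL = true ∧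
    pinL.all (pinChk (mgL.map (cMask (fixW [4, 5])))) = true ∧
    sngl 6 = true ∧ sngl 51 = true := by
  have h := cent_chk
  unfold centChk at h
  rw [wl_eq, forceMs_eq, forceMs_eq] at h
  beta_reduce at h
  unfold sngl allMs
  obtain ⟨h1, h2⟩ := Bool.and_eq_true_iff.mp h
  obtain ⟨h3, h4⟩ := Bool.and_eq_true_iff.mp h2
  obtain ⟨h5, h6⟩ := Bool.and_eq_true_iff.mp h4
  exact ⟨h1, h3, h5, h6⟩

section three

variable {c : Fi24} (hc : ∀ p, p < 2187 → c * vv p = vv p * c)
include hc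

theorem comm_of_clL {a : Fi24} (ha : a ∈ clL vs) : c * a = a * c := by
  obtain ⟨p, hp, rfl⟩ := exists_vv ha
  exact hc p hp

theorem comm_basis {k : ℕ} (hk : k < 7) : c * E (WL.getD k []) = E (WL.getD k []) * c := by
  apply comm_of_clL hc
  apply Subgroup.subset_closure
  show E (WL.getD k []) ∈ vs
  have hk' : k < WL.length := hk
  rw [List.getD_eq_getElem _ _ hk']
  exact List.mem_map_of_mem (List.getElem_mem hk')

theorem inv_mw : ∀ M ∈ mgL.map (cMask (fixW [4, 5])), Inv c M := by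
  have h1 := all2_spec cent_parts.1
  have h2 : ∀ w ∈ mgL, ∃ a, a < 2187 ∧ E w * E [4, 5] * (E w)⁻¹ = vv a := by
    have : ∀ {L : List (List ℕ)} {ms : List ℕ},
        List.Forall₂ (fun g c => (Nat.blt c 2187 && eqP [g.reverse, [4, 5], g] (nfS WL c)) = true) L ms →
        ∀ w ∈ L, ∃ a, a < 2187 ∧ E w * E [4, 5] * (E w)⁻¹ = vv a := by
      intro L ms hL
      induction hL with
      | nil => simp
      | @cons w' q _ _ h6 _ ih =>
        intro w hw
        rcases List.mem_cons.mp hw with rfl | hw'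
        · rw [Bool.and_eq_true] at h6
          refine ⟨q, Nat.le_of_ble_eq_true h6.1, ?_⟩
          have h7 := eqP_sound h6.2
          rw [vv_nfS, EP_cons, EP_cons, EP_cons, EP_nil, one_mul] at h7
          have h8 : E w.reverse = (E w)⁻¹ := ev_reverse w
          rw [h8] at h7
          exact h7
        · exact ih w hw'
    exact this h1
  intro M hM
  obtain ⟨w, hw, rfl⟩ := List.mem_map.mp hM
  obtain ⟨a, ha, he⟩ := h2 w hw
  have hF : FixM (cMask (fixW [4, 5]) w) (E w * E [4, 5] * (E w)⁻¹) := FixM.word (fixW_spec [4, 5]) w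
  apply inv_of_comm hF
  rw [he]
  exact hc a ha

theorem pow_act {w : Fi24} (hcw : c * w = w * c) {p : ℕ} {e : ℕ} (h : Phi c p = Phi (w ^ e) p) (n : ℕ) :
    Phi (c ^ n) p = Phi (w ^ (e * n)) p := by
  induction n with
  | zero => simp
  | succ n ih =>
    have hc' : Commute c w := hcw
    have h1 : c ^ (n + 1) = c ^ n * c := pow_succ c n
    have h2 : w ^ (e * (n + 1)) = w ^ e * w ^ (e * n) := by rw [mul_add, mul_one, pow_add, mul_comm]; exact (Commute.pow_pow_self w _ _).eq.symm ▸ rfl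
    rw [h1, map_mul, Equiv.Perm.mul_apply, h, ← Equiv.Perm.mul_apply, ← map_mul, h2]
    have h3 : c ^ n * w ^ e = w ^ e * c ^ n := ((hc'.pow_left n).pow_right e).eq
    rw [h3, map_mul, map_mul, Equiv.Perm.mul_apply, Equiv.Perm.mul_apply, ih]

/-- A pin is fixed by an element of order prime to 3. -/
theorem fix_pin (h3 : ¬ 3 ∣ orderOf c) {x : ℕ × List ℕ × ℕ × ℕ} (hx : x ∈ pinL) : Phi c (wk x.2.1 0) = wk x.2.1 0 := by
  have h1 := List.all_eq_true.mp cent_parts.2.1 x hx
  unfold pinChk at h1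
  rw [wl_eq] at h1
  simp only [Bool.and_eq_true] at h1
  obtain ⟨⟨⟨h4, h5⟩, h6⟩, h7⟩ := h1
  have hk : x.1 < 7 := Nat.le_of_ble_eq_true h4
  have hp : wk x.2.1 0 < nP := by
    rw [wk_eq _ (by norm_num)]
    exact Phi_lt _ (by norm_num)
  set p := wk x.2.1 0 with hpdef
  have hq0 := beq_true h5
  have hr0 := beq_true h6
  set w := E (WL.getD x.1 []) with hw
  have hqlt : x.2.2.1 < nP := by
    rw [← hq0, wk_eq _ hp]
    exact Phi_lt _ hp
  rw [wk_eq _ hp] at hq0
  rw [wk_eq _ hqlt] at hr0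
  have hbit := atom_inv (y := c) _ (inv_mw hc) hp
  rw [beq_true h7] at hbit
  have hmem := testBit_preM _ _ hbit
  have hcw : c * w = w * c := comm_basis hc hk
  have hw3 : w ^ 3 = 1 := by
    have hmem' : w ∈ vs := by
      have hk' : x.1 < WL.length := hk
      rw [hw, List.getD_eq_getElem _ _ hk']
      exact List.mem_map_of_mem (List.getElem_mem hk')
    exact vs_el.2 w hmem'
  obtain ⟨e, he⟩ : ∃ e, Phi c p = Phi (w ^ e) p := by
    simp only [List.mem_cons, List.not_mem_nil, or_false] at hmem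
    rcases hmem with h | h | h
    · exact ⟨0, by simpa using h⟩
    · exact ⟨1, by rw [h, pow_one, hq0]⟩
    · refine ⟨2, ?_⟩
      rw [h, ← hr0, ← hq0, pow_two, map_mul, Equiv.Perm.mul_apply]
  have hc3 : Phi (c ^ 3) p = p := by
    rw [pow_act hc hcw he 3, mul_comm, pow_mul, hw3, one_pow]
    simp
  have hcop : Nat.Coprime 3 (orderOf c) := (Nat.Prime.coprime_iff_not_dvd Nat.prime_three).2 h3
  obtain ⟨m, hm⟩ := exists_pow_eq_self_of_coprime hcop
  have hpow : ∀ n : ℕ, Phi ((c ^ 3) ^ n) p = p := by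
    intro n
    induction n with
    | zero => simp
    | succ n ih => rw [pow_succ, map_mul, Equiv.Perm.mul_apply, hc3, ih]
  rw [← hm]
  exact hpow m

theorem inv_t (h3 : ¬ 3 ∣ orderOf c) : ∀ M ∈ pinL.map (fun x => tMask x.2.1), Inv c M := by
  intro M hM
  obtain ⟨x, hx, rfl⟩ := List.mem_map.mp hM
  have h1 := fix_pin hc h3 hx
  rw [wk_eq _ (by norm_num)] at h1
  have h2 : Pq (E x.2.1 * ll * (E x.2.1)⁻¹) (Phi (E x.2.1) 0) := ⟨E x.2.1, rfl, rfl⟩
  exact inv_of_comm (FixM.word FixM_A0L x.2.1) (comm_of_fix h2 h1)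

theorem eq_one_of_three (h3 : ¬ 3 ∣ orderOf c) : c = 1 := by
  have hi : ∀ M ∈ allMs, Inv c M := by
    intro M hM
    unfold allMs at hM
    rcases List.mem_append.mp hM with h | h
    · exact inv_t hc h3 M h
    · exact inv_mw hc M h
  have hsing : ∀ {u : ℕ}, u < nP → sngl u = true → Phi c u = u := by
    intro u hu h
    unfold sngl bq at h
    have h1 := atom_inv (y := c) _ hi hu
    rw [beq_true h] at h1
    have h2 : (2 ^ u).testBit (Phi c u) = true := h1
    rw [Nat.testBit_two_pow] at h2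
    have h4 : u = Phi c u := by simpa using h2
    exact h4.symm
  obtain ⟨-, -, e6, e51⟩ := cent_parts
  have h6 : Phi c 6 = 6 := hsing (u := 6) (by norm_num) e6
  have h51 : Phi c 51 = 51 := hsing (u := 51) (by norm_num) e51
  have hpins : ∀ p ∈ [24, 12, 2, 0, 113, 249, 510, 964, 116, 254, 383], Phi c p = p := by
    intro p hp
    rw [← pin_pts] at hp
    obtain ⟨x, hx, rfl⟩ := List.mem_map.mp hp
    exact fix_pin hc h3 hx
  apply eq_one_of_fix
  intro g hg
  interval_cases g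
  · exact h51
  · exact hpins 24 (by decide)
  · exact hpins 12 (by decide)
  · exact h6
  · exact hpins 2 (by decide)
  · exact hpins 0 (by decide)
  · exact hpins 113 (by decide)
  · exact hpins 249 (by decide)
  · exact hpins 510 (by decide)
  · exact hpins 964 (by decide)
  · exact hpins 116 (by decide)
  · exact hpins 254 (by decide)

end three

/-! ### The centraliser -/

theorem nfW_zero : ∀ (l : List ℕ), nfW l 0 = []
  | [] => rfl
  | a :: l => by
    rw [nfW_cons]
    simpa using nfW_zero l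

theorem ev_id_of_comm {n : ℕ} (hc : ∀ p, p < 2187 → nfG TS n * vv p = vv p * nfG TS n) {p : ℕ} (hp : p < 2187) :
    Cfsg.Agent.Lib.OutTree36.ev ap (nfW ixL (n % 3 ^ 9)) p = p := by
  have h1 := act_nf n p hp
  rw [hc p hp] at h1
  have h2 : vv p = vv (Cfsg.Agent.Lib.OutTree36.ev ap (nfW ixL (n % 3 ^ 9)) p) := by
    rw [← h1]
    group
  exact (vv_inj hp (ev_lt_o7 _ hp) h2).symm

theorem gp_pc : PcOK (ixL.map Lt) := pcOK_of H hbs hbn hPc

theorem top_zero {n : ℕ} (hc : ∀ p, p < 2187 → nfG TS n * vv p = vv p * nfG TS n) : n % 3 ^ 9 = 0 := by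
  have h1 : evL Lt (nfW ixL (n % 3 ^ 9)) = evL Lt [] := gp_ext (fun p hp => ev_id_of_comm hc hp)
  rw [evL_nfW, evL_nil] at h1
  have h2 : nfG (ixL.map Lt) (n % 3 ^ 9) = nfG (ixL.map Lt) 0 := by
    rw [h1, nfG_zero]
  exact pc_inj gp_pc (by show n % 3 ^ 9 < 3 ^ 9; exact Nat.mod_lt _ (by norm_num)) (by norm_num) h2

theorem q_card : Nat.card Fi24 = 3 ^ 16 * 58318296029593600 := by
  rw [card_P]
  norm_num

/-- The centraliser of `A` is `A`. -/
theorem cent_A {c : Fi24} (hc : ∀ p, p < 2187 → c * vv p = vv p * c) : ∃ z, z < 2187 ∧ c = vv z := by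
  have hall : ∀ {y : Fi24}, (∀ a ∈ clL vs, y * a = a * y) → ∀ p, p < 2187 → y * vv p = vv p * y :=
    fun h p _ => h _ vv_mem
  have h := Cfsg.Agent.Lib.CentSyl36.cent_eq (G := Fi24) (clL vs) (clL TS) (k := 16) (q := 58318296029593600)
    (Subgroup.closure_mono fun x (hx : x ∈ vs) => List.mem_append_right _ hx)
    (by
      intro x hx a ha
      obtain ⟨n, _, rfl⟩ := pc_form ts_pc hx
      obtain ⟨p, hp, rfl⟩ := exists_vv ha
      rw [act_nf n p hp]
      exact vv_mem)
    (by rw [pc_card ts_pc]; rfl)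
    q_card (by norm_num)
    (by
      intro y hy hcy
      obtain ⟨n, hn, rfl⟩ := pc_form ts_pc hy
      have h0 := top_zero (hall hcy)
      rw [ts_split, h0, nfW_zero, evL_nil, one_mul]
      exact vv_mem)
    (fun y hy h3 => eq_one_of_three (hall hy) h3)
    c (fun a ha => comm_of_clL hc ha)
  exact exists_vv h

end Cfsg.Agent.Lib.F3C
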