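import Mathlib
import Cfsg.Agent.Lib.F3C.CentB
import Cfsg.Agent.Lib.F3C.Defs

/-!
# Closure of the elements over a representative of `Ω₇(3)`
-/

set_option autoImplicit false
set_option maxRecDepth 100000
set_option linter.all false

namespace Cfsg.Agent.Lib.F3C

open Cfsg.Agent.Lib.PcClass36 Cfsg.Agent.Lib.CoxCert
open Cfsg.Agent.Lib.OutTree36 (allL allL_spec beq_true allN allN_spec TabRep evL evL_cons evL_nil evL_append preM testBit_preM tb tb_eq)
open Cfsg.Agent.Lib.F24Base Cfsg.Agent.Lib.F24Rep Cfsg.Agent.Lib.F24Main Cfsg.Agent.Lib.F24Cl Cfsg.Spor Cfsg.Agent.Lib.F24Psi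
open Cfsg.Agent.Lib.Fi24K45 Cfsg.Agent.Lib.Fi24Scan45 Cfsg.Agent.Lib.Fi24Cent45 Cfsg.Agent.Lib.Fi24LT45
open Cfsg.Agent.TcChain36.O7C (ap bsL ixL csL Lt Gp H hbs hbn hPc yW)

/-- The representatives. -/
noncomputable def Rp (i : ℕ) : Fi24 := E (RepL.getD i [])

/-- An element which is conjugate to a representative unless trivial or not of order 3. -/
def Gd (x : Fi24) : Prop := x ^ 3 = 1 → x ≠ 1 → ∃ i, i < 5 ∧ ∃ g : Fi24, g * x * g⁻¹ = Rp i

theorem Gd_conj {x : Fi24} (g : Fi24) (h : Gd (g * x * g⁻¹)) : Gd x := by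
  intro hx3 hx1
  obtain ⟨i, hi, k, hk⟩ := h (by rw [conj_pow, hx3]; group) (by
    intro h0
    apply hx1
    have : x = g⁻¹ * (g * x * g⁻¹) * g := by group
    rw [this, h0]
    group)
  exact ⟨i, hi, k * g, by rw [← hk]; group⟩

/-! ### The closure along a certificate -/

/-- The run of a certificate. -/
noncomputable def runG (step : ℕ → ℕ → ℕ) (cs : List ℕ) : ℕ → ℕ :=
  List.rec (motive := fun _ => ℕ → ℕ) (fun S => S)
    (fun c _ ih S => wl (cond (tb S (step (Nat.div c 2187) (Nat.mod c 2187))) (Nat.lor S (Nat.pow 2 (Nat.mod c 2187))) S) ih) cs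

theorem runG_spec {P : ℕ → Prop} {step : ℕ → ℕ → ℕ} (hstep : ∀ k a, a < 2187 → P (step k a) → P a) :
    ∀ (cs : List ℕ) (S : ℕ), (∀ b, S.testBit b = true → P b) → ∀ b, (runG step cs S).testBit b = true → P b := by
  intro cs
  induction cs with
  | nil =>
    intro S hS b hb
    exact hS b hb
  | cons c cs ih =>
    intro S hS b hb
    have e : runG step (c :: cs) S = runG step cs (cond (tb S (step (Nat.div c 2187) (Nat.mod c 2187))) (Nat.lor S (Nat.pow 2 (Nat.mod c 2187))) S) := by
      show wl _ _ = _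
      rw [wl_eq]
      rfl
    rw [e] at hb
    refine ih _ ?_ b hb
    intro b' hb'
    cases h1 : tb S (step (Nat.div c 2187) (Nat.mod c 2187)) with
    | false =>
      rw [h1] at hb'
      exact hS b' hb'
    | true =>
      rw [h1] at hb'
      have hb2 : (S ||| 2 ^ (c % 2187)).testBit b' = true := hb'
      rw [Nat.testBit_or, Nat.testBit_two_pow, Bool.or_eq_true] at hb2
      rcases hb2 with h2 | h2
      · exact hS b' h2
      · have h3 : c % 2187 = b' := by simpa using h2
        rw [← h3]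
        apply hstep (Nat.div c 2187) (c % 2187) (Nat.mod_lt _ (by norm_num))
        apply hS
        rw [← tb_eq]
        exact h1

/-- The mask of a list of roots. -/
def maskR : List ℕ → ℕ
  | [] => 0
  | r :: L => Nat.lor (Nat.pow 2 r) (maskR L)

theorem maskR_spec {P : ℕ → Prop} : ∀ {L : List ℕ}, (∀ r ∈ L, P r) → ∀ b, (maskR L).testBit b = true → P b
  | [], _, b, h => by simp [maskR] at h
  | r :: L, hL, b, h => by
    have h1 : (2 ^ r ||| maskR L).testBit b = true := h
    rw [Nat.testBit_or, Nat.testBit_two_pow, Bool.or_eq_true] at h1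
    rcases h1 with h2 | h2
    · have h3 : r = b := by simpa using h2
      rw [← h3]
      exact hL r List.mem_cons_self
    · exact maskR_spec (fun r' hr' => hL r' (List.mem_cons_of_mem _ hr')) b h2

theorem all_of_run {P : ℕ → Prop} {step : ℕ → ℕ → ℕ} (hstep : ∀ k a, a < 2187 → P (step k a) → P a)
    {L cs : List ℕ} (hL : ∀ r ∈ L, P r) (h : Nat.beq (runG step cs (maskR L)) (Nat.sub (Nat.pow 2 2187) 1) = true) {b : ℕ}
    (hb : b < 2187) : P b := by
  apply runG_spec hstep cs (maskR L) (maskR_spec hL) b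
  rw [beq_true h]
  exact full_bit _ _ hb

/-! ### Over a representative -/

/-- A zip check of numbers. -/
def all2' (f : ℕ → ℕ → Bool) : List ℕ → List ℕ → Bool
  | [], [] => true
  | u :: L, m :: ms => f u m && all2' f L ms
  | _, _ => false

theorem all2'_mem {f : ℕ → ℕ → Bool} : ∀ {L ms : List ℕ}, all2' f L ms = true → ∀ z ∈ ms, ∃ c ∈ L, f c z = true
  | [], [], _, z, hz => by simp at hz
  | [], _ :: _, h, _, _ => by simp [all2'] at h
  | _ :: _, [], h, _, _ => by simp [all2'] at h
  | u :: L, m :: ms, h, z, hz => by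
    simp only [all2', Bool.and_eq_true] at h
    rcases List.mem_cons.mp hz with rfl | hz'
    · exact ⟨u, List.mem_cons_self, h.1⟩
    · obtain ⟨c, hc, hf⟩ := all2'_mem h.2 z hz'
      exact ⟨c, List.mem_cons_of_mem _ hc, hf⟩

/-- The elements over a representative. -/
noncomputable def X (j a : ℕ) : Fi24 := E (Yy j) * vv a

/-- The translation attached to a code. -/
noncomputable def tz (j c : ℕ) : ℕ :=
  addN 7 c (addN 7 (Cfsg.Agent.Lib.OutTree36.ev ap (yW j) c) (Cfsg.Agent.Lib.OutTree36.ev ap (yW j) c))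

theorem Gd_tz {j c : ℕ} (hj : j < 7) (hc : c < 2187) (a : ℕ) (h : Gd (X j (addN 7 (tz j c) a))) : Gd (X j a) := by
  apply Gd_conj (vv (Cfsg.Agent.Lib.OutTree36.ev ap (yW j) c))
  set b := Cfsg.Agent.Lib.OutTree36.ev ap (yW j) c with hb
  have h1 : E (Yy j) * vv c * (E (Yy j))⁻¹ = vv b := y_act hj c hc
  have h2 : vv b * E (Yy j) = E (Yy j) * vv c := by
    rw [← h1]
    group
  have h3 : (vv b)⁻¹ = vv b * vv b := by
    have := vv_lt_of_cube b
    rw [inv_eq_iff_mul_eq_one, ← mul_assoc]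
    rw [pow_succ, pow_two] at this
    exact this
  have h4 : vv b * X j a * (vv b)⁻¹ = X j (addN 7 (tz j c) a) := by
    unfold X tz
    rw [vv_add, vv_add, vv_add, ← h3, ← mul_assoc, h2]
    have h5 := vv_comm a b
    have h6 : (vv a) * (vv b)⁻¹ = (vv b)⁻¹ * vv a := by
      rw [eq_inv_mul_iff_mul_eq, ← mul_assoc, ← h5, mul_assoc, mul_inv_cancel, mul_one]
    calc E (Yy j) * vv c * vv a * (vv b)⁻¹ = E (Yy j) * vv c * (vv a * (vv b)⁻¹) := by group
      _ = E (Yy j) * vv c * ((vv b)⁻¹ * vv a) := by rw [h6]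
      _ = _ := by group
  rw [h4]
  exact h

/-- The check of a move. -/
noncomputable def mvChk (j : ℕ) (mv : Mv) : Bool :=
  eqP [Yy j, mv.g] (mv.g :: (nfS WL mv.z ++ [Yy j])) && chkLin mv.g mv.m

/-- The step of a move. -/
noncomputable def stepM (mv : Mv) (a : ℕ) : ℕ := addN 7 mv.z (lin 7 mv.m a)

theorem Gd_mv {j : ℕ} {mv : Mv} (h : mvChk j mv = true) (a : ℕ) (hG : Gd (X j (stepM mv a))) : Gd (X j a) := by
  rw [mvChk, Bool.and_eq_true] at h
  apply Gd_conj (E mv.g)
  have h1 := eqP_sound h.1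
  rw [EP_cons, EP_cons, EP_cons, EP_nil, one_mul, EP_append, vv_nfS, EP_cons, EP_nil, one_mul] at h1
  have h2 := conj_vv h.2 a
  have h3 : E mv.g * X j a * (E mv.g)⁻¹ = X j (stepM mv a) := by
    unfold X stepM
    rw [vv_add, ← h2, ← mul_assoc, ← mul_assoc]
    calc E mv.g * E (Yy j) * vv a * (E mv.g)⁻¹
        = (E mv.g * E (Yy j)) * (vv a * (E mv.g)⁻¹) := by group
      _ = (E (Yy j) * vv mv.z * E mv.g) * (vv a * (E mv.g)⁻¹) := by rw [h1]
      _ = _ := by group
  rw [h3]
  exact hG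

/-- The step along a certificate: the first indices are translations. -/
noncomputable def stepJ (az : List ℕ) (mvs : List Mv) (k a : ℕ) : ℕ :=
  cond (Nat.blt k 7) (addN 7 (az.getD k 0) a)
    (match mvs[k - 7]? with
     | some mv => stepM mv a
     | none => a)

theorem add_zero_vv (a : ℕ) : vv (addN 7 0 a) = vv a := by
  rw [vv_add, vv_zero, one_mul]

/-- A root of the closure. -/
noncomputable def rtChk (j : ℕ) (rt : Rt) : Bool :=
  cond (Nat.beq rt.i 5)
    (!(eqP (nfS WL rt.r ++ [Yy j] ++ (nfS WL rt.r ++ [Yy j]) ++ (nfS WL rt.r ++ [Yy j])) []))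
    (Nat.blt rt.i 5 && eqP (nfS WL rt.r ++ [Yy j] ++ [rt.g]) [rt.g, RepL.getD rt.i []])

theorem EP_x (j r : ℕ) : EP (nfS WL r ++ [Yy j]) = X j r := by
  rw [EP_append, vv_nfS, EP_cons, EP_nil, one_mul]
  rfl

theorem Gd_root {j : ℕ} {rt : Rt} (h : rtChk j rt = true) : Gd (X j rt.r) := by
  unfold rtChk at h
  cases h1 : Nat.beq rt.i 5 with
  | true =>
    rw [h1, cond_true, Bool.not_eq_true'] at h
    intro hx3
    exfalso
    apply eqP_false h
    rw [EP_append (nfS WL rt.r ++ [Yy j] ++ (nfS WL rt.r ++ [Yy j])), EP_append (nfS WL rt.r ++ [Yy j]), EP_x, EP_nil]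
    have e3 : X j rt.r * (X j rt.r * X j rt.r) = X j rt.r ^ 3 := by rw [pow_succ, pow_two, mul_assoc]
    rw [e3, hx3]
  | false =>
    rw [h1, cond_false, Bool.and_eq_true] at h
    intro _ _
    refine ⟨rt.i, Nat.le_of_ble_eq_true h.1, E rt.g, ?_⟩
    have h2 := eqP_sound h.2
    rw [EP_append (nfS WL rt.r ++ [Yy j]) [rt.g], EP_x, EP_cons, EP_nil, one_mul, EP_cons, EP_cons, EP_nil, one_mul] at h2
    unfold Rp
    rw [h2]
    group

/-- The check over a representative. -/
noncomputable def chkJ (j : ℕ) (cz az : List ℕ) (mvs : List Mv) (rts : List Rt) (cert : List ℕ) : Bool :=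
  Nat.blt j 7 && all2' (fun c z => Nat.blt c 2187 && Nat.beq z (tz j c)) cz az && mvs.all (mvChk j) && rts.all (rtChk j) &&
    Nat.beq (runG (stepJ az mvs) cert (maskR (rts.map Rt.r))) (Nat.sub (Nat.pow 2 2187) 1)

theorem good_of_chk {j : ℕ} {cz az : List ℕ} {mvs : List Mv} {rts : List Rt} {cert : List ℕ}
    (h : chkJ j cz az mvs rts cert = true) {a : ℕ} (ha : a < 2187) : Gd (X j a) := by
  unfold chkJ at h
  simp only [Bool.and_eq_true] at h
  obtain ⟨⟨⟨⟨hj, h1⟩, h2⟩, h3⟩, h4⟩ := h
  have hj' : j < 7 := Nat.le_of_ble_eq_true hj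
  have hstep : ∀ k a, a < 2187 → Gd (X j (stepJ az mvs k a)) → Gd (X j a) := by
    intro k a _ hG
    unfold stepJ at hG
    cases hk : Nat.blt k 7 with
    | true =>
      rw [hk, cond_true] at hG
      have hk' : k < 7 := Nat.le_of_ble_eq_true hk
      by_cases hz : az.getD k 0 = 0
      · rw [hz] at hG
        unfold X at hG ⊢
        rwa [add_zero_vv] at hG
      · have hm : az.getD k 0 ∈ az := by
          by_cases hl : k < az.length
          · rw [List.getD_eq_getElem _ _ hl]
            exact List.getElem_mem hl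
          · exfalso
            apply hz
            rw [List.getD_eq_default _ _ (by omega)]
        obtain ⟨c, _, hf⟩ := all2'_mem h1 _ hm
        rw [Bool.and_eq_true] at hf
        have hc : c < 2187 := Nat.le_of_ble_eq_true hf.1
        rw [beq_true hf.2] at hG
        exact Gd_tz hj' hc a hG
    | false =>
      rw [hk, cond_false] at hG
      cases hm : mvs[k - 7]? with
      | none =>
        rw [hm] at hG
        exact hG
      | some mv =>
        rw [hm] at hG
        have hmem : mv ∈ mvs := List.mem_of_getElem? hm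
        exact Gd_mv (List.all_eq_true.mp h2 mv hmem) a hG
  have hroots : ∀ r ∈ rts.map Rt.r, Gd (X j r) := by
    intro r hr
    obtain ⟨rt, hrt, rfl⟩ := List.mem_map.mp hr
    exact Gd_root (List.all_eq_true.mp h3 rt hrt)
  exact all_of_run (P := fun a => Gd (X j a)) hstep hroots h4 ha

end Cfsg.Agent.Lib.F3C
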