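import Mathlib
import Cfsg.Agent.Lib.F3C.Good
import Cfsg.Agent.Lib.F3C.D1

/-!
# Checks over one representative of `Ω₇(3)`
-/

set_option autoImplicit false
set_option maxRecDepth 100000
set_option linter.all false
set_option maxHeartbeats 0
set_option Elab.async false

namespace Cfsg.Agent.Lib.F3C

theorem g_1 : chkJ 1 cz1 az1 mvs1 rts1 crt1 = true := by decide +kernel

end Cfsg.Agent.Lib.F3C
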