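import Mathlib
import Cfsg.Agent.Lib.F3C.Good

/-!
# The check of the elements of the elementary abelian subgroup
-/

set_option autoImplicit false
set_option maxRecDepth 100000
set_option linter.all false

namespace Cfsg.Agent.Lib.F3C

open Cfsg.Agent.TcChain36.O7C (ap)

/-- The step in `A`. -/
noncomputable def stepA (k a : ℕ) : ℕ := cond (Nat.blt k 17) (ap k a) a

set_option maxHeartbeats 0 in
set_option Elab.async false in
theorem ga_run : Nat.beq (runG stepA AcertL (maskR (0 :: ArepL))) (Nat.sub (Nat.pow 2 2187) 1) = true := by decide +kernel

set_option maxHeartbeats 0 in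
set_option Elab.async false in
theorem ga_rep : (List.range 3).all (fun i => eqP [RepL.getD i []] (nfS WL (ArepL.getD i 0))) = true := by decide +kernel

set_option maxHeartbeats 0 in
set_option Elab.async false in
theorem ga_len : ArepL = [ArepL.getD 0 0, ArepL.getD 1 0, ArepL.getD 2 0] := by decide +kernel

end Cfsg.Agent.Lib.F3C
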