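import Mathlib
import Cfsg.Agent.Lib.F3C.GA
import Cfsg.Agent.Lib.F3C.G0
import Cfsg.Agent.Lib.F3C.G1
import Cfsg.Agent.Lib.F3C.G2
import Cfsg.Agent.Lib.F3C.G3
import Cfsg.Agent.Lib.F3C.G4
import Cfsg.Agent.Lib.F3C.G5
import Cfsg.Agent.Lib.F3C.G6

/-!
# Every element of order 3 of `Fi₂₄` is conjugate to one of five
-/

set_option autoImplicit false
set_option maxRecDepth 100000
set_option linter.all false

namespace Cfsg.Agent.Lib.F3C

open Cfsg.Agent.Lib.PcClass36 Cfsg.Agent.Lib.CoxCert
open Cfsg.Agent.Lib.OutTree36 (allL allL_spec beq_true allN allN_spec TabRep evL evL_cons evL_nil evL_append preM testBit_preM tb tb_eq)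
open Cfsg.Agent.Lib.F24Base Cfsg.Agent.Lib.F24Rep Cfsg.Agent.Lib.F24Main Cfsg.Agent.Lib.F24Cl Cfsg.Spor Cfsg.Agent.Lib.F24Psi
open Cfsg.Agent.Lib.Fi24K45 Cfsg.Agent.Lib.Fi24Scan45 Cfsg.Agent.Lib.Fi24Cent45 Cfsg.Agent.Lib.Fi24LT45
open Cfsg.Agent.TcChain36.O7C (ap bsL ixL csL Lt Gp H hbs hbn hPc yW hchk)

noncomputable abbrev evO : List ℕ → ℕ → ℕ := Cfsg.Agent.Lib.OutTree36.ev ap

theorem good_j {j a : ℕ} (hj : j < 7) (ha : a < 2187) : Gd (X j a) := by
  interval_cases j
  · exact good_of_chk g_0 ha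
  · exact good_of_chk g_1 ha
  · exact good_of_chk g_2 ha
  · exact good_of_chk g_3 ha
  · exact good_of_chk g_4 ha
  · exact good_of_chk g_5 ha
  · exact good_of_chk g_6 ha

theorem good_A {a : ℕ} (ha : a < 2187) : Gd (vv a) := by
  have hstep : ∀ k a, a < 2187 → Gd (vv (stepA k a)) → Gd (vv a) := by
    intro k a ha hG
    unfold stepA at hG
    cases hk : Nat.blt k 17 with
    | true =>
      rw [hk, cond_true] at hG
      have hk' : k < 17 := Nat.le_of_ble_eq_true hk
      apply Gd_conj (Lf k)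
      rw [lf_act hk' a ha]
      exact hG
    | false =>
      rw [hk, cond_false] at hG
      exact hG
  have hroots : ∀ r ∈ 0 :: ArepL, Gd (vv r) := by
    intro r hr
    rcases List.mem_cons.mp hr with rfl | hr'
    · intro _ h0
      exact absurd vv_zero h0
    · have : ∃ i, i < 3 ∧ r = ArepL.getD i 0 := by
        rw [ga_len] at hr'
        simp only [List.mem_cons, List.not_mem_nil, or_false] at hr'
        rcases hr' with h | h | h
        · exact ⟨0, by norm_num, h⟩
        · exact ⟨1, by norm_num, h⟩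
        · exact ⟨2, by norm_num, h⟩
      obtain ⟨i, hi, rfl⟩ := this
      intro _ _
      refine ⟨i, by omega, 1, ?_⟩
      have h1 := eqP_sound (List.all_eq_true.mp ga_rep i (List.mem_range.mpr hi))
      rw [EP_cons, EP_nil, one_mul, vv_nfS] at h1
      unfold Rp
      rw [h1]
      group
  exact all_of_run (P := fun a => Gd (vv a)) hstep hroots ga_run ha

theorem mem_decW {f c k : ℕ} (h : k ∈ Cfsg.Agent.Lib.PcClass36.decW f c) : k < 8 := by
  induction f generalizing c with
  | zero => simp [Cfsg.Agent.Lib.PcClass36.decW] at h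
  | succ f ih =>
    have e : Cfsg.Agent.Lib.PcClass36.decW (f + 1) c = cond (Nat.beq c 0) [] (Nat.pred (Nat.mod c 9) :: Cfsg.Agent.Lib.PcClass36.decW f (Nat.div c 9)) := rfl
    rw [e] at h
    cases h0 : Nat.beq c 0 with
    | true =>
      rw [h0] at h
      simp at h
    | false =>
      rw [h0] at h
      simp only [cond_false, List.mem_cons] at h
      rcases h with rfl | h
      · have : Nat.mod c 9 < 9 := Nat.mod_lt _ (by norm_num)
        show Nat.pred (Nat.mod c 9) < 8
        have e2 : Nat.pred (Nat.mod c 9) = Nat.mod c 9 - 1 := rfl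
        rw [e2]
        by_cases h00 : Nat.mod c 9 = 0
        · rw [h00]
          norm_num
        · omega
      · exact ih h

theorem act_mul {g h : Fi24} {u v : List ℕ} (hg : Act g (evO u)) (hh : Act h (evO v)) : Act (g * h) (evO (u ++ v)) := by
  intro p hp
  have h1 := hh p hp
  have h2 := hg _ (ev_lt_o7 v hp)
  have e : evO (u ++ v) p = evO u (evO v p) := Cfsg.Agent.Lib.OutTree36.ev_append ap u v p
  rw [e, ← h2, ← h1]
  group

/-- The main step. -/
theorem good_nf {n : ℕ} (hn : n < 3 ^ 16) : Gd (nfG TS n) := by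
  rw [ts_split]
  set a1 := n % 3 ^ 9 with ha1
  set a2 := n / 3 ^ 9 with ha2
  have ha1lt : a1 < 3 ^ ixL.length := Nat.mod_lt _ (by positivity)
  have ha2lt : a2 < 2187 := by
    rw [ha2]
    exact Nat.div_lt_of_lt_mul (by norm_num; omega)
  set w := nfW ixL a1 with hw
  have hT : Act (evL Lf w) (evO w) := act_evL (nfW_lt a1)
  obtain ⟨c, hc⟩ := hchk a1 ha1lt
  unfold chkN at hc
  by_cases hc0 : c = 0
  · subst hc0
    simp only [show Nat.beq 0 0 = true from rfl, cond_true, Bool.or_eq_true] at hc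
    rcases hc with h | h
    · have h0 : a1 = 0 := beq_true h
      rw [hw, h0, nfW_zero, evL_nil, one_mul]
      exact good_A ha2lt
    · intro hx3 _
      exfalso
      have hAx : Act (evL Lf w * vv a2) (evO w) := act_mul_vv hT a2
      have hA3 : Act ((evL Lf w * vv a2) * ((evL Lf w * vv a2) * (evL Lf w * vv a2))) (evO (w ++ w ++ w)) := by
        have := act_mul hAx (act_mul hAx hAx)
        rwa [List.append_assoc]
      have e3 : (evL Lf w * vv a2) * ((evL Lf w * vv a2) * (evL Lf w * vv a2)) = 1 := by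
        rw [← hx3, pow_succ, pow_two, ← mul_assoc]
      rw [e3] at hA3
      have h1 : Cfsg.Agent.Lib.PcClass36.eqB ap bsL (w ++ w ++ w) [] = true := by
        apply allL_of'
        intro b hb
        have hb' := hbn b hb
        have h2 := hA3 b hb'
        simp only [one_mul, inv_one, mul_one] at h2
        have h3 := vv_inj hb' (ev_lt_o7 _ hb') h2
        show Nat.beq (Cfsg.Agent.Lib.OutTree36.ev ap (w ++ w ++ w) b) b = true
        rw [← h3]
        exact Nat.beq_refl _
      rw [h1] at h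
      simp at h
  · have hcf : Nat.beq c 0 = false := by
      rw [Bool.eq_false_iff]
      exact fun h => hc0 (beq_true h)
    rw [hcf, cond_false] at hc
    set d := Cfsg.Agent.Lib.PcClass36.decW 64 (Nat.div (Nat.pred c) 7) with hd
    set j := Nat.mod (Nat.pred c) 7 with hj
    have hj7 : j < 7 := Nat.mod_lt _ (by norm_num)
    have h7 := eqB_sound H hbs hbn hc
    have hG : Act (evL Lf d) (evO d) := act_evL fun k hk => by
      have := mem_decW hk
      omega
    have hY : Act (E (Yy j)) (evO (yW j)) := y_act hj7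
    have hA1 := act_mul hG hT
    have hA2 := act_mul hY hG
    have hcomm : ∀ p, p < 2187 → ((E (Yy j) * evL Lf d)⁻¹ * (evL Lf d * evL Lf w)) * vv p =
        vv p * ((E (Yy j) * evL Lf d)⁻¹ * (evL Lf d * evL Lf w)) := by
      intro p hp
      have e1 := hA1 p hp
      have e2 := hA2 p hp
      have e3 : evO (d ++ w) p = evO (yW j ++ d) p := by
        show Cfsg.Agent.Lib.OutTree36.ev ap (d ++ w) p = Cfsg.Agent.Lib.OutTree36.ev ap (yW j ++ d) p
        rw [← H.ev_eq _ hp, ← H.ev_eq _ hp, h7]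
      rw [e3, ← e2] at e1
      have e4 : (evL Lf d * evL Lf w) * vv p = ((E (Yy j) * evL Lf d) * vv p * (E (Yy j) * evL Lf d)⁻¹) * (evL Lf d * evL Lf w) := by
        rw [← e1]
        group
      calc (E (Yy j) * evL Lf d)⁻¹ * (evL Lf d * evL Lf w) * vv p
          = (E (Yy j) * evL Lf d)⁻¹ * ((evL Lf d * evL Lf w) * vv p) := by group
        _ = (E (Yy j) * evL Lf d)⁻¹ * (((E (Yy j) * evL Lf d) * vv p * (E (Yy j) * evL Lf d)⁻¹) * (evL Lf d * evL Lf w)) := by rw [e4]
        _ = _ := by group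
    obtain ⟨z, hz, hcz⟩ := cent_A hcomm
    have e5 : evL Lf d * evL Lf w = E (Yy j) * evL Lf d * vv z := by
      rw [← hcz]
      group
    have hadd := addN_lt 7 z a2
    have e6 : evL Lf d * (evL Lf w * vv a2) * (evL Lf d)⁻¹ = X j (evO d (addN 7 z a2)) := by
      unfold X
      rw [← hG _ hadd, vv_add]
      calc evL Lf d * (evL Lf w * vv a2) * (evL Lf d)⁻¹
          = (evL Lf d * evL Lf w) * vv a2 * (evL Lf d)⁻¹ := by group
        _ = (E (Yy j) * evL Lf d * vv z) * vv a2 * (evL Lf d)⁻¹ := by rw [e5]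
        _ = _ := by group
    apply Gd_conj (evL Lf d)
    rw [e6]
    exact good_j hj7 (ev_lt_o7 _ hadd)

/-- Every element of order 3 of `Fi₂₄` is conjugate to one of five. -/
theorem cover {x : Fi24} (hx3 : x ^ 3 = 1) (hx1 : x ≠ 1) : ∃ i, i < 5 ∧ ∃ g : Fi24, g * x * g⁻¹ = Rp i := by
  obtain ⟨g, n, hn, hg⟩ := exists_nf ts_pc (q := 58318296029593600) q_card (by norm_num) hx3 hx1
  have h := good_nf (n := n) hn
  rw [← hg] at h
  exact Gd_conj g h hx3 hx1

end Cfsg.Agent.Lib.F3C
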